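import Mathlib

/-!
# S2499 (normal 2-coverings), `M₁₂`: permutations of twelve points (helper348)

`φ : T → Sym(12)` such that only `1` fixes five points.
* `TyB σ` : cycle type `1, 1, 2, 8`; `TyZ σ` : cycle type `2, 10`; `TyX σ` : cycle type `1, 11`;
* `stab_pair` : a subgroup `R` of order prime to `11` with elements of types `TyB`, `TyZ` stabilises a pair;
* `fix_or` : a subgroup with elements of types `TyX`, `TyB` fixes a point or has order divisible by `1056`.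
-/

set_option autoImplicit false

universe u

namespace Cfsg.Agent.H348.Cov.MTw

open Subgroup

/-- cycle type `1, 1, 2, 8` -/
def TyB (σ : Equiv.Perm (Fin 12)) : Prop :=
  ∃ f g a b : Fin 12, (f ≠ g ∧ a ≠ b ∧ a ≠ f ∧ a ≠ g ∧ b ≠ f ∧ b ≠ g) ∧ (σ f = f ∧ σ g = g ∧ σ a = b ∧ σ b = a) ∧
    (∀ c, c ≠ f → c ≠ g → c ≠ a → c ≠ b → ∀ j < 8, (σ ^ (2 * j)) c = c → j = 0 ∨ j = 4) ∧
    (∀ c, c ≠ f → c ≠ g → c ≠ a → c ≠ b → ∀ c', c' ≠ f → c' ≠ g → c' ≠ a → c' ≠ b → ∃ j < 8, (σ ^ j) c = c')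

/-- cycle type `2, 10` -/
def TyZ (σ : Equiv.Perm (Fin 12)) : Prop :=
  ∃ d e : Fin 12, d ≠ e ∧ σ d = e ∧ σ e = d ∧ (∀ c, c ≠ d → c ≠ e → ∀ c', c' ≠ d → c' ≠ e → ∃ j < 10, (σ ^ j) c = c') ∧
    (∀ c, c ≠ d → c ≠ e → ∀ i < 5, ∀ j < 5, (σ ^ (2 * i)) c = (σ ^ (2 * j)) c → i = j)

/-- cycle type `1, 11` -/
def TyX (σ : Equiv.Perm (Fin 12)) : Prop :=
  ∃ d : Fin 12, σ d = d ∧ ∀ c, c ≠ d → ∀ c', c' ≠ d → ∃ j < 11, (σ ^ j) c = c'

theorem ai (τ : Equiv.Perm (Fin 12)) (c : Fin 12) : τ (τ⁻¹ c) = c := by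
  rw [← Equiv.Perm.mul_apply, mul_inv_cancel, Equiv.Perm.one_apply]

theorem ia (τ : Equiv.Perm (Fin 12)) (c : Fin 12) : τ⁻¹ (τ c) = c := by
  rw [← Equiv.Perm.mul_apply, inv_mul_cancel, Equiv.Perm.one_apply]

theorem conj_pow_apply (τ σ : Equiv.Perm (Fin 12)) (j : ℕ) (c : Fin 12) :
    ((τ * σ * τ⁻¹) ^ j) c = τ ((σ ^ j) (τ⁻¹ c)) := by
  rw [conj_pow, Equiv.Perm.mul_apply, Equiv.Perm.mul_apply]

theorem conj_apply (τ σ : Equiv.Perm (Fin 12)) (c : Fin 12) : (τ * σ * τ⁻¹) c = τ (σ (τ⁻¹ c)) := by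
  rw [Equiv.Perm.mul_apply, Equiv.Perm.mul_apply]

theorem inv_ne {τ : Equiv.Perm (Fin 12)} {c f : Fin 12} (h : c ≠ τ f) : τ⁻¹ c ≠ f := by
  rintro rfl
  exact h (ai τ c).symm

theorem TyB.conj {σ : Equiv.Perm (Fin 12)} (h : TyB σ) (τ : Equiv.Perm (Fin 12)) : TyB (τ * σ * τ⁻¹) := by
  obtain ⟨f, g, a, b, ⟨h1, h2, h3, h4, h5, h6⟩, ⟨k1, k2, k3, k4⟩, h7, h8⟩ := h
  refine ⟨τ f, τ g, τ a, τ b, ⟨τ.injective.ne h1, τ.injective.ne h2, τ.injective.ne h3, τ.injective.ne h4,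
    τ.injective.ne h5, τ.injective.ne h6⟩, ⟨?_, ?_, ?_, ?_⟩, ?_, ?_⟩
  · rw [conj_apply, ia, k1]
  · rw [conj_apply, ia, k2]
  · rw [conj_apply, ia, k3]
  · rw [conj_apply, ia, k4]
  · intro c c1 c2 c3 c4 j hj hc
    refine h7 (τ⁻¹ c) (inv_ne c1) (inv_ne c2) (inv_ne c3) (inv_ne c4) j hj ?_
    rw [conj_pow_apply] at hc
    rw [Equiv.Perm.eq_inv_iff_eq, hc]
  · intro c c1 c2 c3 c4 c' c1' c2' c3' c4'
    obtain ⟨j, hj, hc⟩ := h8 (τ⁻¹ c) (inv_ne c1) (inv_ne c2) (inv_ne c3) (inv_ne c4) (τ⁻¹ c') (inv_ne c1')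
      (inv_ne c2') (inv_ne c3') (inv_ne c4')
    refine ⟨j, hj, ?_⟩
    rw [conj_pow_apply, hc, ai]

theorem TyZ.conj {σ : Equiv.Perm (Fin 12)} (h : TyZ σ) (τ : Equiv.Perm (Fin 12)) : TyZ (τ * σ * τ⁻¹) := by
  obtain ⟨d, e, h1, h2, h3, h4, h5⟩ := h
  refine ⟨τ d, τ e, τ.injective.ne h1, ?_, ?_, ?_, ?_⟩
  · rw [conj_apply, ia, h2]
  · rw [conj_apply, ia, h3]
  · intro c c1 c2 c' c1' c2'
    obtain ⟨j, hj, hc⟩ := h4 (τ⁻¹ c) (inv_ne c1) (inv_ne c2) (τ⁻¹ c') (inv_ne c1') (inv_ne c2')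
    refine ⟨j, hj, ?_⟩
    rw [conj_pow_apply, hc, ai]
  · intro c c1 c2 i hi j hj hc
    rw [conj_pow_apply, conj_pow_apply] at hc
    exact h5 (τ⁻¹ c) (inv_ne c1) (inv_ne c2) i hi j hj (τ.injective hc)

theorem TyX.conj {σ : Equiv.Perm (Fin 12)} (h : TyX σ) (τ : Equiv.Perm (Fin 12)) : TyX (τ * σ * τ⁻¹) := by
  obtain ⟨d, h1, h2⟩ := h
  refine ⟨τ d, ?_, ?_⟩
  · rw [conj_apply, ia, h1]
  · intro c c1 c' c1'
    obtain ⟨j, hj, hc⟩ := h2 (τ⁻¹ c) (inv_ne c1) (τ⁻¹ c') (inv_ne c1')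
    refine ⟨j, hj, ?_⟩
    rw [conj_pow_apply, hc, ai]

section

variable {T : Type u} [Group T] (φ : T →* Equiv.Perm (Fin 12))

/-- the stabilizer of a point -/
def St (p : Fin 12) : Subgroup T := (MulAction.stabilizer (Equiv.Perm (Fin 12)) p).comap φ

theorem mem_St {p : Fin 12} {t : T} : t ∈ St φ p ↔ φ t p = p := Iff.rfl

/-- orbit-stabilizer -/
theorem card_eq [Finite T] {S : Subgroup T} {p : Fin 12} {X : Finset (Fin 12)}
    (h : ∀ q, q ∈ X ↔ ∃ r ∈ S, φ r p = q) :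
    Nat.card S = X.card * Nat.card (S ⊓ St φ p : Subgroup T) := by
  classical
  let act : MulAction S (Fin 12) := MulAction.compHom (Fin 12) (φ.comp S.subtype)
  have h1 : ∀ (s : S) (q : Fin 12), s • q = φ (s : T) q := fun _ _ => rfl
  have h2 : MulAction.orbit S p = (X : Set (Fin 12)) := by
    ext q
    rw [Finset.mem_coe, h q, MulAction.mem_orbit_iff]
    constructor
    · rintro ⟨s, hs⟩
      exact ⟨s, s.2, by rw [← h1, hs]⟩
    · rintro ⟨r, hr, hq⟩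
      exact ⟨⟨r, hr⟩, by rw [h1, hq]⟩
  have h3 : MulAction.stabilizer S p = (S ⊓ St φ p).subgroupOf S := by
    ext s
    rw [MulAction.mem_stabilizer_iff, h1, Subgroup.mem_subgroupOf, Subgroup.mem_inf, mem_St]
    exact ⟨fun h => ⟨s.2, h⟩, fun h => h.2⟩
  have h4 := (MulAction.stabilizer S p).card_mul_index
  rw [MulAction.index_stabilizer, h2, Set.ncard_coe_finset, h3,
    Nat.card_congr (Subgroup.subgroupOfEquivOfLe (inf_le_left : S ⊓ St φ p ≤ S)).toEquiv] at h4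
  rw [← h4, mul_comm]

theorem map_mul_apply (s t : T) (p : Fin 12) : φ (s * t) p = φ s (φ t p) := by
  rw [map_mul, Equiv.Perm.mul_apply]

theorem map_pow_apply (s : T) (j : ℕ) (p : Fin 12) : φ (s ^ j) p = (φ s ^ j) p := by
  rw [map_pow]

theorem map_inv_apply' {s : T} {p q : Fin 12} (h : φ s p = q) : φ s⁻¹ q = p := by
  rw [← h, map_inv, ia]

theorem trans_or_pair {R : Subgroup T} {z : T} (hz : z ∈ R) (hZ : TyZ (φ z)) :
    (∀ p q, ∃ r ∈ R, φ r p = q) ∨ ∃ d, ∀ r ∈ R, (φ r ^ 2) d = d := by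
  obtain ⟨d, e, h1, h2, h3, h4, -⟩ := hZ
  by_cases h : ∀ r ∈ R, φ r d = d ∨ φ r d = e
  · right
    refine ⟨d, fun r hr => ?_⟩
    rw [pow_two, Equiv.Perm.mul_apply]
    rcases h r hr with h5 | h5
    · rw [h5, h5]
    · rw [h5]
      have h6 := h (r * z) (R.mul_mem hr hz)
      rw [map_mul_apply, h2] at h6
      rcases h6 with h6 | h6
      · exact h6
      · exact absurd ((φ r).injective (h5.trans h6.symm)) h1
  · left
    push Not at h
    obtain ⟨r, hr, hd, he⟩ := h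
    have key : ∀ q, ∃ r ∈ R, φ r d = q := by
      intro q
      by_cases hqd : q = d
      · exact ⟨1, R.one_mem, by rw [map_one, hqd]; rfl⟩
      by_cases hqe : q = e
      · exact ⟨z, hz, by rw [h2, hqe]⟩
      obtain ⟨j, -, hj⟩ := h4 (φ r d) hd he q hqd hqe
      exact ⟨z ^ j * r, R.mul_mem (R.pow_mem hz j) hr, by rw [map_mul_apply, map_pow_apply, hj]⟩
    intro p q
    obtain ⟨r1, hr1, h5⟩ := key p
    obtain ⟨r2, hr2, h6⟩ := key q
    exact ⟨r2 * r1⁻¹, R.mul_mem hr2 (R.inv_mem hr1), by rw [map_mul_apply, map_inv_apply' φ h5, h6]⟩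

/-- the orbits of the stabilizer of `f` -/
theorem key_orbit [Finite T] {R : Subgroup T} (h11 : ¬ 11 ∣ Nat.card R) (htr : ∀ p q, ∃ r ∈ R, φ r p = q)
    {z : T} (hz : z ∈ R) (hZ : TyZ (φ z)) {y : T} (hy : y ∈ R) {f g a b : Fin 12}
    (hne : f ≠ g ∧ a ≠ b ∧ a ≠ f ∧ a ≠ g ∧ b ≠ f ∧ b ≠ g) (hyy : φ y f = f ∧ φ y g = g ∧ φ y a = b ∧ φ y b = a)
    (hC : ∀ c, c ≠ f → c ≠ g → c ≠ a → c ≠ b → ∀ c', c' ≠ f → c' ≠ g → c' ≠ a → c' ≠ b →
      ∃ j < 8, (φ y ^ j) c = c') :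
    (∀ r ∈ R, φ r f = f → φ r g = g) ∧
      ∀ q, q ≠ f → q ≠ g → ∀ q', q' ≠ f → q' ≠ g → ∃ r ∈ R, φ r f = f ∧ φ r q = q' := by
  classical
  obtain ⟨hfg, hab, haf, hag, hbf, hbg⟩ := hne
  obtain ⟨yf, yg, ya, yb⟩ := hyy
  obtain ⟨d, e, z1, z2, z3, -, z5⟩ := hZ
  obtain ⟨r0, hr0, hd0⟩ := htr d f
  set g' := φ r0 e with hg'
  have hg'f : g' ≠ f := by
    rw [hg', ← hd0]
    exact fun h => z1 ((φ r0).injective h).symm
  set w := r0 * z ^ 2 * r0⁻¹ with hw
  have hwR : w ∈ R := R.mul_mem (R.mul_mem hr0 (R.pow_mem hz 2)) (R.inv_mem hr0)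
  have hwp : ∀ (j : ℕ) (p : Fin 12), φ (w ^ j) p = φ r0 ((φ z ^ (2 * j)) (φ r0⁻¹ p)) := by
    intro j p
    have h1 : w ^ j = r0 * (z ^ (2 * j)) * r0⁻¹ := by rw [hw, conj_pow, ← pow_mul]
    rw [h1, map_mul_apply, map_mul_apply, map_pow_apply]
  have hz2d : ∀ j : ℕ, (φ z ^ (2 * j)) d = d := by
    intro j
    induction j with
    | zero => rw [mul_zero, pow_zero]; rfl
    | succ j ih =>
      rw [show 2 * (j + 1) = 2 * j + 2 by ring, pow_add, Equiv.Perm.mul_apply, pow_two, Equiv.Perm.mul_apply, z2, z3, ih]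
  have hwf : ∀ j : ℕ, φ (w ^ j) f = f := by
    intro j
    rw [hwp, map_inv_apply' φ hd0, hz2d, hd0]
  -- the relation
  set Rel : Fin 12 → Fin 12 → Prop := fun q q' => ∃ r ∈ R, φ r f = f ∧ φ r q = q' with hRel
  have rsymm : ∀ q q', Rel q q' → Rel q' q := by
    rintro q q' ⟨r, hr, h1, h2⟩
    exact ⟨r⁻¹, R.inv_mem hr, map_inv_apply' φ h1, map_inv_apply' φ h2⟩
  have rtrans : ∀ q q' q'', Rel q q' → Rel q' q'' → Rel q q'' := by
    rintro q q' q'' ⟨r, hr, h1, h2⟩ ⟨s, hs, h3, h4⟩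
    exact ⟨s * r, R.mul_mem hs hr, by rw [map_mul_apply, h1, h3], by rw [map_mul_apply, h2, h4]⟩
  have yfj : ∀ j : ℕ, φ (y ^ j) f = f := by
    intro j
    induction j with
    | zero => rw [pow_zero, map_one]; rfl
    | succ j ih => rw [pow_succ, map_mul_apply, yf, ih]
  have rC : ∀ c, c ≠ f → c ≠ g → c ≠ a → c ≠ b → ∀ c', c' ≠ f → c' ≠ g → c' ≠ a → c' ≠ b → Rel c c' := by
    intro c c1 c2 c3 c4 c' c1' c2' c3' c4'
    obtain ⟨j, -, hj⟩ := hC c c1 c2 c3 c4 c' c1' c2' c3' c4'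
    exact ⟨y ^ j, R.pow_mem hy j, yfj j, by rw [map_pow_apply, hj]⟩
  -- a point of `C`
  obtain ⟨c0, c01, c02, c03, c04⟩ : ∃ c : Fin 12, c ≠ f ∧ c ≠ g ∧ c ≠ a ∧ c ≠ b := by
    by_contra hcon
    push Not at hcon
    have h1 : (Finset.univ : Finset (Fin 12)) ⊆ {f, g, a, b} := by
      intro c _
      simp only [Finset.mem_insert, Finset.mem_singleton]
      by_contra h2
      push Not at h2
      exact h2.2.2.2 (hcon c h2.1 h2.2.1 h2.2.2.1)
    have h2 := (Finset.card_le_card h1).trans Finset.card_le_four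
    rw [Finset.card_univ, Fintype.card_fin] at h2
    omega
  have rW : ∀ q, q ≠ f → q ≠ g' → Rel q c0 := by
    intro q h1 h2
    have h3 : φ r0⁻¹ q ≠ d := by
      intro h
      apply h1
      rw [← hd0, ← h, ← map_mul_apply, mul_inv_cancel, map_one]
      rfl
    have h4 : φ r0⁻¹ q ≠ e := by
      intro h
      apply h2
      rw [hg', ← h, ← map_mul_apply, mul_inv_cancel, map_one]
      rfl
    have hinj : ∀ i < 5, ∀ j < 5, φ (w ^ i) q = φ (w ^ j) q → i = j := by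
      intro i hi j hj hij
      rw [hwp, hwp] at hij
      exact z5 _ h3 h4 i hi j hj ((φ r0).injective hij)
    obtain ⟨j, hj⟩ : ∃ j : ℕ, φ (w ^ j) q ≠ g ∧ φ (w ^ j) q ≠ a ∧ φ (w ^ j) q ≠ b := by
      by_contra hcon
      push Not at hcon
      have h5 : (Finset.range 5).image (fun j => φ (w ^ j) q) ⊆ {g, a, b} := by
        intro c hc
        rw [Finset.mem_image] at hc
        obtain ⟨j, -, rfl⟩ := hc
        simp only [Finset.mem_insert, Finset.mem_singleton]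
        by_contra h6
        push Not at h6
        exact h6.2.2 (hcon j h6.1 h6.2.1)
      have h6 := (Finset.card_le_card h5).trans Finset.card_le_three
      rw [Finset.card_image_of_injOn, Finset.card_range] at h6
      · omega
      · intro i hi j hj hij
        rw [Finset.coe_range, Set.mem_Iio] at hi hj
        exact hinj i hi j hj hij
    have h7 : φ (w ^ j) q ≠ f := by
      intro h
      exact h1 ((φ (w ^ j)).injective (h.trans (hwf j).symm))
    exact rtrans _ _ _ ⟨w ^ j, R.pow_mem hwR j, hwf j, rfl⟩ (rC _ h7 hj.1 hj.2.1 hj.2.2 c0 c01 c02 c03 c04)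
  -- not all the other points are in one orbit
  have hno : ¬ ∀ q, q ≠ f → Rel q c0 := by
    intro hall
    apply h11
    have h1 := card_eq φ (S := R ⊓ St φ f) (p := c0) (X := Finset.univ.erase f) (by
      intro q
      rw [Finset.mem_erase]
      constructor
      · rintro ⟨hq, -⟩
        obtain ⟨r, hr, h1, h2⟩ := rsymm _ _ (hall q hq)
        exact ⟨r, ⟨hr, h1⟩, h2⟩
      · rintro ⟨r, ⟨hr, h1⟩, h2⟩
        refine ⟨?_, Finset.mem_univ _⟩
        rintro rfl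
        exact c01 ((φ r).injective (h2.trans ((mem_St φ).1 h1).symm)))
    rw [Finset.card_erase_of_mem (Finset.mem_univ _), Finset.card_univ, Fintype.card_fin] at h1
    have h2 : Nat.card (R ⊓ St φ f : Subgroup T) ∣ Nat.card R := Subgroup.card_dvd_of_le inf_le_left
    exact (Dvd.intro _ h1.symm).trans h2
  have hg : g' = g := by
    by_contra hgg
    apply hno
    intro q hq
    by_cases hqg : q = g'
    · subst hqg
      by_cases h1 : g' = a
      · have h2 : Rel b c0 := rW b hbf (by rw [h1]; exact hab.symm)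
        rw [h1]
        exact rtrans _ _ _ ⟨y, hy, yf, ya⟩ h2
      by_cases h2 : g' = b
      · have h3 : Rel a c0 := rW a haf (by rw [h2]; exact hab)
        rw [h2]
        exact rtrans _ _ _ ⟨y, hy, yf, yb⟩ h3
      exact rC _ hg'f hgg h1 h2 c0 c01 c02 c03 c04
    · exact rW q hq hqg
  constructor
  · intro r hr hrf
    by_contra hrg
    apply hno
    intro q hq
    by_cases hqg : q = g
    · subst hqg
      have h1 : φ r q ≠ f := by
        intro h
        exact hfg.symm ((φ r).injective (h.trans hrf.symm))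
      exact rtrans _ _ _ ⟨r, hr, hrf, rfl⟩ (rW _ h1 (by rw [hg]; exact hrg))
    · exact rW q hq (by rw [hg]; exact hqg)
  · intro q h1 h2 q' h3 h4
    exact rtrans _ _ _ (rW q h1 (by rw [hg]; exact h2)) (rsymm _ _ (rW q' h3 (by rw [hg]; exact h4)))

/-- a transitive subgroup of order prime to `11` has no elements of types `TyB` and `TyZ` -/
theorem no_trans [Finite T] (h5 : ∀ t : T, ∀ s : Finset (Fin 12), 5 ≤ s.card → (∀ i ∈ s, φ t i = i) → t = 1)
    {R : Subgroup T} (h11 : ¬ 11 ∣ Nat.card R) (htr : ∀ p q, ∃ r ∈ R, φ r p = q)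
    {z : T} (hz : z ∈ R) (hZ : TyZ (φ z)) {y : T} (hy : y ∈ R) (hY : TyB (φ y)) : False := by
  classical
  obtain ⟨f, g, a, b, hne, hyy, hC4, hC⟩ := hY
  obtain ⟨k1, k2⟩ := key_orbit φ h11 htr hz hZ hy hne hyy hC
  obtain ⟨hfg, hab, haf, hag, hbf, hbg⟩ := hne
  obtain ⟨yf, yg, ya, yb⟩ := hyy
  -- the partner of a point
  choose ρ hρR hρ using htr f
  set π : Fin 12 → Fin 12 := fun p => φ (ρ p) g with hπ
  have πr : ∀ r ∈ R, ∀ p, π (φ r p) = φ r (π p) := by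
    intro r hr p
    have h1 : φ ((ρ (φ r p))⁻¹ * (r * ρ p)) f = f := by
      rw [map_mul_apply, map_mul_apply, hρ, map_inv_apply' φ (hρ (φ r p))]
    have h2 := k1 _ (R.mul_mem (R.inv_mem (hρR _)) (R.mul_mem hr (hρR _))) h1
    have h3 := map_inv_apply' φ h2
    rw [mul_inv_rev, inv_inv, map_mul_apply] at h3
    have h4 : φ (ρ (φ r p)) g = φ (r * ρ p) g := by
      have h5 := congrArg (φ (r * ρ p)) h3
      rwa [← map_mul_apply, mul_inv_cancel, map_one, Equiv.Perm.one_apply] at h5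
    rw [hπ]
    show φ (ρ (φ r p)) g = φ r (φ (ρ p) g)
    rw [h4, map_mul_apply]
  have πf : π f = g := k1 _ (hρR f) (hρ f)
  have πne : ∀ p, π p ≠ p := by
    intro p h
    have h1 : φ (ρ p) g = φ (ρ p) f := h.trans (hρ p).symm
    exact hfg ((φ (ρ p)).injective h1).symm
  have πg : π g = f := by
    by_contra h
    have hg' : π g ≠ g := πne g
    obtain ⟨q', q1, q2, q3⟩ : ∃ q : Fin 12, q ≠ f ∧ q ≠ g ∧ q ≠ π g := by
      by_contra hcon
      push Not at hcon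
      have h1 : (Finset.univ : Finset (Fin 12)) ⊆ {f, g, π g} := by
        intro c _
        simp only [Finset.mem_insert, Finset.mem_singleton]
        by_contra h2
        push Not at h2
        exact h2.2.2 (hcon c h2.1 h2.2.1)
      have h2 := (Finset.card_le_card h1).trans Finset.card_le_three
      rw [Finset.card_univ, Fintype.card_fin] at h2
      omega
    obtain ⟨r, hr, hrf, hrq⟩ := k2 _ h hg' q' q1 q2
    apply q3
    rw [← hrq, ← πr r hr, k1 r hr hrf]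
  have ππ : ∀ p, π (π p) = p := by
    intro p
    show π (φ (ρ p) g) = p
    rw [πr _ (hρR p), πg, hρ]
  have πinj : ∀ p q, π p = π q → p = q := fun p q h => by rw [← ππ p, h, ππ]
  -- `π a = b`
  have hya2 : φ (y ^ 2) a = a := by rw [pow_two, map_mul_apply, ya, yb]
  have πa : π a = b := by
    have h1 : φ (y ^ 2) (π a) = π a := by rw [← πr _ (R.pow_mem hy 2), hya2]
    rw [map_pow_apply] at h1
    have h2 : π a ≠ f := by
      intro h
      exact hag (by rw [← ππ a, h, πf])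
    have h3 : π a ≠ g := by
      intro h
      exact haf (by rw [← ππ a, h, πg])
    by_contra h4
    have h5' := hC4 (π a) h2 h3 (πne a) h4 1 (by norm_num) (by rw [mul_one]; exact h1)
    omega
  have πb : π b = a := by rw [← πa, ππ]
  have πC : ∀ c, c ≠ f → c ≠ g → c ≠ a → c ≠ b → π c ≠ f ∧ π c ≠ g ∧ π c ≠ a ∧ π c ≠ b := by
    intro c c1 c2 c3 c4
    refine ⟨fun h => c2 ?_, fun h => c1 ?_, fun h => c4 ?_, fun h => c3 ?_⟩
    · rw [← ππ c, h, πf]
    · rw [← ππ c, h, πg]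
    · rw [← ππ c, h, πa]
    · rw [← ππ c, h, πb]
  -- `u = y ^ 4`
  have uC : ∀ c, c ≠ f → c ≠ g → c ≠ a → c ≠ b → φ (y ^ 4) c = π c := by
    intro c c1 c2 c3 c4
    obtain ⟨p1, p2, p3, p4⟩ := πC c c1 c2 c3 c4
    obtain ⟨j, hj, hjc⟩ := hC c c1 c2 c3 c4 (π c) p1 p2 p3 p4
    have h1 : φ (y ^ j) c = π c := by rw [map_pow_apply, hjc]
    have h2 : φ (y ^ j) (π c) = c := by rw [← πr _ (R.pow_mem hy j), h1, ππ]
    have h3 : φ (y ^ (2 * j)) c = c := by
      rw [two_mul, pow_add, map_mul_apply, h1, h2]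
    rw [map_pow_apply] at h3
    rcases hC4 c c1 c2 c3 c4 j hj h3 with h4 | h4
    · exfalso
      rw [h4, pow_zero, map_one] at h1
      exact πne c h1.symm
    · rw [← h4, h1]
  have uf : φ (y ^ 4) f = f := by
    rw [show y ^ 4 = y * y * y * y by simp only [pow_succ, pow_zero, one_mul], map_mul_apply, map_mul_apply, map_mul_apply, yf, yf, yf, yf]
  have ug : φ (y ^ 4) g = g := by
    rw [show y ^ 4 = y * y * y * y by simp only [pow_succ, pow_zero, one_mul], map_mul_apply, map_mul_apply, map_mul_apply, yg, yg, yg, yg]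
  have ua : φ (y ^ 4) a = a := by
    rw [show y ^ 4 = y * y * y * y by simp only [pow_succ, pow_zero, one_mul], map_mul_apply, map_mul_apply, map_mul_apply, ya, yb, ya, yb]
  have ub : φ (y ^ 4) b = b := by
    rw [show y ^ 4 = y * y * y * y by simp only [pow_succ, pow_zero, one_mul], map_mul_apply, map_mul_apply, map_mul_apply, yb, ya, yb, ya]
  obtain ⟨c0, c01, c02, c03, c04⟩ : ∃ c : Fin 12, c ≠ f ∧ c ≠ g ∧ c ≠ a ∧ c ≠ b := by
    by_contra hcon
    push Not at hcon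
    have h1 : (Finset.univ : Finset (Fin 12)) ⊆ {f, g, a, b} := by
      intro c _
      simp only [Finset.mem_insert, Finset.mem_singleton]
      by_contra h2
      push Not at h2
      exact h2.2.2.2 (hcon c h2.1 h2.2.1 h2.2.2.1)
    have h2 := (Finset.card_le_card h1).trans Finset.card_le_four
    rw [Finset.card_univ, Fintype.card_fin] at h2
    omega
  obtain ⟨r, hr, hrf, hra⟩ := k2 a haf hag c0 c01 c02
  have hrg := k1 r hr hrf
  have hrb : φ r b = π c0 := by rw [← πa, ← πr r hr, hra]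
  obtain ⟨p1, p2, p3, p4⟩ := πC c0 c01 c02 c03 c04
  -- the conjugate of `u`
  have hinv : ∀ p, φ r (φ r⁻¹ p) = p := by
    intro p
    rw [← map_mul_apply, mul_inv_cancel, map_one]; rfl
  have u' : ∀ p, p ≠ f → p ≠ g → p ≠ c0 → p ≠ π c0 → φ (r * y ^ 4 * r⁻¹) p = π p := by
    intro p q1 q2 q3 q4
    have e1 : φ r⁻¹ p ≠ f := by
      intro h; apply q1; rw [← hinv p, h, hrf]
    have e2 : φ r⁻¹ p ≠ g := by
      intro h; apply q2; rw [← hinv p, h, hrg]
    have e3 : φ r⁻¹ p ≠ a := by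
      intro h; apply q3; rw [← hinv p, h, hra]
    have e4 : φ r⁻¹ p ≠ b := by
      intro h; apply q4; rw [← hinv p, h, hrb]
    rw [map_mul_apply, map_mul_apply, uC _ e1 e2 e3 e4, ← πr r hr, hinv]
  have uf' : φ (r * y ^ 4 * r⁻¹) f = f := by
    rw [map_mul_apply, map_mul_apply, map_inv_apply' φ hrf, uf, hrf]
  have ug' : φ (r * y ^ 4 * r⁻¹) g = g := by
    rw [map_mul_apply, map_mul_apply, map_inv_apply' φ hrg, ug, hrg]
  have hv : y ^ 4 * (r * y ^ 4 * r⁻¹) = 1 := by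
    refine h5 _ (Finset.univ \ {a, b, c0, π c0}) ?_ ?_
    · have h1 : (Finset.univ \ {a, b, c0, π c0} : Finset (Fin 12)).card ≥ 12 - 4 := by
        have h2 := Finset.le_card_sdiff ({a, b, c0, π c0} : Finset (Fin 12)) Finset.univ
        have h3 : ({a, b, c0, π c0} : Finset (Fin 12)).card ≤ 4 := Finset.card_le_four
        rw [Finset.card_univ, Fintype.card_fin] at h2
        omega
      omega
    · intro i hi
      rw [Finset.mem_sdiff, Finset.mem_insert, Finset.mem_insert, Finset.mem_insert, Finset.mem_singleton] at hi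
      obtain ⟨-, hi⟩ := hi
      push Not at hi
      obtain ⟨i1, i2, i3, i4⟩ := hi
      rw [map_mul_apply]
      by_cases hif : i = f
      · rw [hif, uf', uf]
      by_cases hig : i = g
      · rw [hig, ug', ug]
      rw [u' i hif hig i3 i4]
      obtain ⟨q1, q2, q3, q4⟩ := πC i hif hig i1 i2
      rw [uC _ q1 q2 q3 q4, ππ]
  have hva : φ (y ^ 4 * (r * y ^ 4 * r⁻¹)) a = b := by
    rw [map_mul_apply, u' a haf hag c03.symm (Ne.symm p3), πa, ub]
  rw [hv, map_one] at hva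
  exact hab hva

/-- **a subgroup of order prime to `11` with elements of types `TyB`, `TyZ` stabilises a pair** -/
theorem stab_pair [Finite T] (h5 : ∀ t : T, ∀ s : Finset (Fin 12), 5 ≤ s.card → (∀ i ∈ s, φ t i = i) → t = 1)
    {R : Subgroup T} (h11 : ¬ 11 ∣ Nat.card R) {z : T} (hz : z ∈ R) (hZ : TyZ (φ z)) {y : T} (hy : y ∈ R)
    (hY : TyB (φ y)) : ∃ d, ∀ r ∈ R, (φ r ^ 2) d = d :=
  (trans_or_pair φ hz hZ).resolve_left fun htr => no_trans φ h5 h11 htr hz hZ hy hY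

theorem trans_or_fix {R : Subgroup T} {x : T} (hx : x ∈ R) (hX : TyX (φ x)) :
    (∃ d, (∀ q, ∃ r ∈ R, φ r d = q) ∧ (∀ c, c ≠ d → ∀ c', c' ≠ d → ∃ r ∈ R, φ r d = d ∧ φ r c = c')) ∨
      ∃ d, ∀ r ∈ R, φ r d = d := by
  obtain ⟨d, h1, h2⟩ := hX
  have hj : ∀ j : ℕ, φ (x ^ j) d = d := by
    intro j
    induction j with
    | zero => rw [pow_zero, map_one]; rfl
    | succ j ih => rw [pow_succ, map_mul_apply, h1, ih]
  by_cases h : ∀ r ∈ R, φ r d = d
  · exact Or.inr ⟨d, h⟩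
  · left
    push Not at h
    obtain ⟨r, hr, hrd⟩ := h
    refine ⟨d, fun q => ?_, fun c hc c' hc' => ?_⟩
    · by_cases hq : q = d
      · exact ⟨1, R.one_mem, by rw [map_one, hq]; rfl⟩
      · obtain ⟨j, -, hjq⟩ := h2 _ hrd q hq
        exact ⟨x ^ j * r, R.mul_mem (R.pow_mem hx j) hr, by rw [map_mul_apply, map_pow_apply, hjq]⟩
    · obtain ⟨j, -, hjq⟩ := h2 c hc c' hc'
      exact ⟨x ^ j, R.pow_mem hx j, hj j, by rw [map_pow_apply, hjq]⟩

/-- a subgroup with elements of types `TyX` and `TyB` fixes a point or has order divisible by `1056` -/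
theorem fix_or [Finite T] {R : Subgroup T} {x : T} (hx : x ∈ R) (hX : TyX (φ x)) {y : T} (hy : y ∈ R)
    (hY : TyB (φ y)) (hy8 : 8 ∣ orderOf y) : (∃ d, ∀ r ∈ R, φ r d = d) ∨ 1056 ∣ Nat.card R := by
  classical
  rcases trans_or_fix φ hx hX with ⟨d, h1, h2⟩ | h
  swap
  · exact Or.inl h
  right
  obtain ⟨f, g, a, b, ⟨hfg, -⟩, ⟨yf, yg, -⟩, -⟩ := hY
  obtain ⟨s, hs, hsf⟩ := h1 f
  have e1 : Nat.card R = (Finset.univ : Finset (Fin 12)).card * Nat.card (R ⊓ St φ f : Subgroup T) := by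
    refine card_eq φ fun q => ⟨fun _ => ?_, fun _ => Finset.mem_univ _⟩
    obtain ⟨r, hr, hrq⟩ := h1 q
    exact ⟨r * s⁻¹, R.mul_mem hr (R.inv_mem hs), by rw [map_mul_apply, map_inv_apply' φ hsf, hrq]⟩
  have hsinv : ∀ q, φ s (φ s⁻¹ q) = q := by
    intro q
    rw [← map_mul_apply, mul_inv_cancel, map_one]; rfl
  have hne : ∀ q, q ≠ f → φ s⁻¹ q ≠ d := by
    intro q hq h
    apply hq
    rw [← hsinv q, h, hsf]
  have e2 : Nat.card (R ⊓ St φ f : Subgroup T) = (Finset.univ.erase f).card *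
      Nat.card (R ⊓ St φ f ⊓ St φ g : Subgroup T) := by
    refine card_eq φ fun q => ?_
    rw [Finset.mem_erase]
    constructor
    · rintro ⟨hq, -⟩
      obtain ⟨r, hr, hr1, hr2⟩ := h2 _ (hne g hfg.symm) _ (hne q hq)
      refine ⟨s * r * s⁻¹, ⟨R.mul_mem (R.mul_mem hs hr) (R.inv_mem hs), ?_⟩, ?_⟩
      · show φ (s * r * s⁻¹) f = f
        rw [map_mul_apply, map_mul_apply, map_inv_apply' φ hsf, hr1, hsf]
      · rw [map_mul_apply, map_mul_apply, hr2, hsinv]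
    · rintro ⟨r, ⟨-, hr1⟩, hr2⟩
      refine ⟨?_, Finset.mem_univ _⟩
      rintro rfl
      exact hfg ((φ r).injective (hr2.trans ((mem_St φ).1 hr1).symm)).symm
  rw [Finset.card_univ, Fintype.card_fin] at e1
  rw [Finset.card_erase_of_mem (Finset.mem_univ _), Finset.card_univ, Fintype.card_fin] at e2
  have hmem : y ∈ R ⊓ St φ f ⊓ St φ g := ⟨⟨hy, yf⟩, yg⟩
  have h8 : 8 ∣ Nat.card (R ⊓ St φ f ⊓ St φ g : Subgroup T) := by
    refine hy8.trans ?_
    rw [← Subgroup.orderOf_mk y hmem]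
    exact _root_.orderOf_dvd_natCard _
  obtain ⟨k, hk⟩ := h8
  refine ⟨k, ?_⟩
  rw [e1, e2, hk]
  ring

end

end Cfsg.Agent.H348.Cov.MTw
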